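import Mathlib
import Cfsg.Prelude.Def_Classical
import Cfsg.Agent.Lib.Helper8.WallInd

/-!
# Classes of elements of odd prime order in finite orthogonal groups: the interface

Interface of the team project for S2673 / S2674 / S2675 (number of conjugacy classes of elements
of odd prime order `r ≠ p` in `O_(2m+1)(q)`, `O⁺_2m(q)`, `O⁻_2m(q)`).  Each package is a `Prop`;
each is proved in its own file.  `F` is a finite field with `q` elements, `r` an odd prime with
`r ≠ 0` in `F`, `i` the order of `q` modulo `r`, `Φ` the set of monic irreducible factors of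
`1 + X + ⋯ + X^(r-1)` over `F` and `st` the involution `φ ↦ φ*` (normalised reciprocal
polynomial).  `dimk A φ = dim ker φ(A)`.
-/

set_option autoImplicit false

namespace Cfsg.Agent.Lib.Helper43.OCls

open Polynomial Module
open Cfsg.Agent.Lib.Helper8.WallBasic Cfsg.Agent.Lib.Helper8.WallForm
open scoped Classical

universe u

/-! ### Basic definitions -/

/-- `dim ker φ(A)`. -/
noncomputable def dimk {F : Type u} [Field F] {V : Type u} [AddCommGroup V] [Module F V]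
    (A : V →ₗ[F] V) (φ : F[X]) : ℕ :=
  finrank F ↥(LinearMap.ker (aeval A φ))

/-- `A` has no non-zero fixed vector. -/
def Fpf {F : Type u} [Field F] {V : Type u} [AddCommGroup V] [Module F V] (A : V →ₗ[F] V) :
    Prop :=
  ∀ v, A v = v → v = 0

/-- `A` is an isometry of `Q` (non-degenerate polar form) with `A ^ r = 1`.  (No hypothesis on
the characteristic.) -/
structure Isom {F : Type u} [Field F] {V : Type u} [AddCommGroup V] [Module F V]
    (Q : QuadraticForm F V) (r : ℕ) (A : V →ₗ[F] V) : Prop where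
  nondeg : (QuadraticMap.polarBilin Q).Nondegenerate
  pow : A ^ r = 1
  isom : ∀ v, Q (A v) = Q v

/-- The link to helper8's Wall library. -/
theorem Isom.setup {F : Type u} [Field F] {V : Type u} [AddCommGroup V] [Module F V]
    {Q : QuadraticForm F V} {r : ℕ} {A : V →ₗ[F] V} (S : Isom Q r A) (hr : Odd r)
    (hrF : (r : F) ≠ 0) : Setup (QuadraticMap.polarBilin Q) r A where
  symm x y := by
    show QuadraticMap.polar Q x y = QuadraticMap.polar Q y x
    exact QuadraticMap.polar_comm Q x y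
  odd := hr
  pow := S.pow
  isom x y := by
    show QuadraticMap.polar Q (A x) (A y) = QuadraticMap.polar Q x y
    unfold QuadraticMap.polar
    rw [← map_add, S.isom, S.isom, S.isom]
  ne := hrF

/-- The monic irreducible factors of `1 + X + ⋯ + X^(r-1)`. -/
noncomputable def cycFactors (F : Type u) [Field F] (r : ℕ) : Finset F[X] :=
  (UniqueFactorizationMonoid.normalizedFactors
    (∑ k ∈ Finset.range r, (X : F[X]) ^ k)).toFinset

/-- The normalised reciprocal polynomial. -/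
noncomputable def st {F : Type u} [Field F] (φ : F[X]) : F[X] :=
  C (φ.coeff 0)⁻¹ * φ.reverse

/-- The facts about the factorisation of `X ^ r - 1` used by all other packages. -/
structure CycData (F : Type u) [Field F] (r i : ℕ) (Φ : Finset F[X]) (σ : F[X] → F[X]) :
    Prop where
  monic : ∀ φ ∈ Φ, φ.Monic
  irr : ∀ φ ∈ Φ, Irreducible φ
  deg : ∀ φ ∈ Φ, φ.natDegree = i
  prod : (X - 1) * ∏ φ ∈ Φ, φ = X ^ r - 1
  card : Φ.card * i = r - 1
  st_mem : ∀ φ ∈ Φ, σ φ ∈ Φ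
  st_st : ∀ φ ∈ Φ, σ (σ φ) = φ
  st_odd : Odd i → ∀ φ ∈ Φ, σ φ ≠ φ
  st_even : Even i → ∀ φ ∈ Φ, σ φ = φ
  st_ker : ∀ {V : Type u} [AddCommGroup V] [Module F V] (A : V →ₗ[F] V), A ^ r = 1 →
    ∀ φ ∈ Φ, LinearMap.ker (aeval A (σ φ)) = LinearMap.ker (aeval (A ^ (r - 1)) φ)

/-- The standing arithmetic hypotheses. -/
structure Ctx (F : Type u) [Field F] [Fintype F] (q r i : ℕ) (Φ : Finset F[X])
    (σ : F[X] → F[X]) : Prop where
  card : Fintype.card F = q
  prime : r.Prime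
  ne2 : r ≠ 2
  neF : (r : F) ≠ 0
  ord : i = orderOf (q : ZMod r)
  cyc : CycData F r i Φ σ

/-- `Q` is isometric to the standard hyperbolic form `Σ x_j y_j`. -/
def IsPlus {F : Type u} [Field F] {V : Type u} [AddCommGroup V] [Module F V]
    (Q : QuadraticForm F V) : Prop :=
  ∃ (m : ℕ) (θ : (Fin m ⊕ Fin m → F) ≃ₗ[F] V), ∀ v, Q (θ v) = Cfsg.quadFormPlus m F v

/-- `Q` is isometric to a standard elliptic form `Σ x_j y_j + z₁² + a z₁ z₂ + c z₂²` (anisotropic
binary part). -/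
def IsMinus {F : Type u} [Field F] {V : Type u} [AddCommGroup V] [Module F V]
    (Q : QuadraticForm F V) : Prop :=
  ∃ (m : ℕ) (a c : F) (θ : ((Fin m ⊕ Fin m) ⊕ Fin 2 → F) ≃ₗ[F] V),
    (∀ z₁ z₂ : F, z₁ ^ 2 + a * z₁ * z₂ + c * z₂ ^ 2 = 0 → z₁ = 0 ∧ z₂ = 0) ∧
    ∀ v, Q (θ v) = Cfsg.quadFormMinus m F a c v

/-- The type of a quadratic space carrying a fixed-point-free isometry of order `r` whose
non-trivial irreducible constituents number `s` (counted with dimension `i`): hyperbolic if `i`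
is odd; if `i` is even, hyperbolic for `s` even and elliptic for `s` odd. -/
def TypeOK {F : Type u} [Field F] {V : Type u} [AddCommGroup V] [Module F V]
    (Q : QuadraticForm F V) (i s : ℕ) : Prop :=
  (Odd i → IsPlus Q) ∧ (Even i → (Even s → IsPlus Q) ∧ (Odd s → IsMinus Q))

/-! ### Cyclotomic packages -/

/-- **CycA.** `cycFactors F r` is exactly the set of monic irreducible divisors of
`1 + X + ⋯ + X^(r-1)`, and `X ^ r - 1 = (X - 1) ∏ φ` (the polynomial is separable as `r ≠ 0`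
in `F`). -/
def CycA : Prop :=
  ∀ {F : Type u} [Field F] [Fintype F] (r : ℕ), r.Prime → (r : F) ≠ 0 →
    (∀ φ : F[X], φ ∈ cycFactors F r ↔
      (φ.Monic ∧ Irreducible φ ∧ φ ∣ ∑ k ∈ Finset.range r, (X : F[X]) ^ k)) ∧
    (X - 1) * ∏ φ ∈ cycFactors F r, φ = (X : F[X]) ^ r - 1

/-- **CycB.** Every irreducible factor of `1 + X + ⋯ + X^(r-1)` over `F_q` has degree
`i = ord_r(q)`. -/
def CycB : Prop :=
  ∀ {F : Type u} [Field F] [Fintype F] (q r i : ℕ), Fintype.card F = q → r.Prime →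
    (r : F) ≠ 0 → i = orderOf (q : ZMod r) →
    ∀ φ : F[X], φ.Monic → Irreducible φ → φ ∣ ∑ k ∈ Finset.range r, (X : F[X]) ^ k →
      φ.natDegree = i

/-- **CycC.** The normalised reciprocal `st φ` of an irreducible factor is again one; `st` is an
involution; it fixes every factor if `i` is even and no factor if `i` is odd. -/
def CycC : Prop :=
  ∀ {F : Type u} [Field F] [Fintype F] (q r i : ℕ), Fintype.card F = q → r.Prime → r ≠ 2 →
    (r : F) ≠ 0 → i = orderOf (q : ZMod r) →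
    ∀ φ : F[X], φ.Monic → Irreducible φ → φ ∣ ∑ k ∈ Finset.range r, (X : F[X]) ^ k →
      ((st φ).Monic ∧ Irreducible (st φ) ∧ st φ ∣ ∑ k ∈ Finset.range r, (X : F[X]) ^ k) ∧
      st (st φ) = φ ∧ (Odd i → st φ ≠ φ) ∧ (Even i → st φ = φ)

/-- **CycD.** `ker (st φ)(A) = ker φ(A⁻¹)` for `A ^ r = 1` (`A⁻¹ = A ^ (r - 1)`). -/
def CycD : Prop :=
  ∀ {F : Type u} [Field F] {V : Type u} [AddCommGroup V] [Module F V] (r : ℕ)
    (A : V →ₗ[F] V), 0 < r → A ^ r = 1 → ∀ φ : F[X], φ.coeff 0 ≠ 0 →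
      LinearMap.ker (aeval A (st φ)) = LinearMap.ker (aeval (A ^ (r - 1)) φ)

/-! ### Linear algebra packages (no form) -/

/-- **GLConj.** Two semisimple endomorphisms (`A ^ N = B ^ N = 1`, `N ≠ 0` in `F`) with
`dim ker g(A) = dim ker g(B)` for all polynomials `g` are conjugate under `GL(V)`. -/
def GLConj : Prop :=
  ∀ {F : Type u} [Field F] [Finite F] {V : Type u} [AddCommGroup V] [Module F V]
    [FiniteDimensional F V] (N : ℕ), (N : F) ≠ 0 → ∀ A B : V →ₗ[F] V, A ^ N = 1 → B ^ N = 1 →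
    (∀ g : F[X], dimk A g = dimk B g) → ∃ γ : V ≃ₗ[F] V, ∀ v, γ (A v) = B (γ v)

/-- **AllG.** The dimensions `dim ker φ(A)`, `φ ∈ Φ`, determine `dim ker g(A)` for all `g`. -/
def AllG : Prop :=
  ∀ {F : Type u} [Field F] [Finite F] {V : Type u} [AddCommGroup V] [Module F V]
    [FiniteDimensional F V] (r i : ℕ) (Φ : Finset F[X]) (σ : F[X] → F[X]),
    CycData F r i Φ σ → (r : F) ≠ 0 → ∀ A B : V →ₗ[F] V, A ^ r = 1 → B ^ r = 1 →
    (∀ φ ∈ Φ, dimk A φ = dimk B φ) → ∀ g : F[X], dimk A g = dimk B g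

/-- **Decomp.** `V = ker (A - 1) ⊕ ⨁_φ ker φ(A)`, on dimensions. -/
def Decomp : Prop :=
  ∀ {F : Type u} [Field F] [Finite F] {V : Type u} [AddCommGroup V] [Module F V]
    [FiniteDimensional F V] (r i : ℕ) (Φ : Finset F[X]) (σ : F[X] → F[X]),
    CycData F r i Φ σ → (r : F) ≠ 0 → ∀ A : V →ₗ[F] V, A ^ r = 1 →
    finrank F V = finrank F ↥(LinearMap.ker (A - 1)) + ∑ φ ∈ Φ, dimk A φ

/-- **IrrDim.** An irreducible `A` without fixed vectors has `dim V = i`, and exactly one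
`φ ∈ Φ` kills it. -/
def IrrDim : Prop :=
  ∀ {F : Type u} [Field F] [Finite F] {V : Type u} [AddCommGroup V] [Module F V]
    [FiniteDimensional F V] (r i : ℕ) (Φ : Finset F[X]) (σ : F[X] → F[X]),
    CycData F r i Φ σ → (r : F) ≠ 0 → ∀ A : V →ₗ[F] V, A ^ r = 1 → Irr A ⊤ → Fpf A →
    finrank F V = i ∧ ∃ φ ∈ Φ, ∀ ψ ∈ Φ, dimk A ψ = if ψ = φ then i else 0

/-- **DivI.** `i` divides `dim ker φ(A)` for `φ ∈ Φ`. -/
def DivI : Prop :=
  ∀ {F : Type u} [Field F] [Finite F] {V : Type u} [AddCommGroup V] [Module F V]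
    [FiniteDimensional F V] (r i : ℕ) (Φ : Finset F[X]) (σ : F[X] → F[X]),
    CycData F r i Φ σ → (r : F) ≠ 0 → ∀ A : V →ₗ[F] V, A ^ r = 1 → ∀ φ ∈ Φ, i ∣ dimk A φ

/-- **Dual.** For an isometry, `dim ker φ*(A) = dim ker φ(A)`. -/
def Dual : Prop :=
  ∀ {F : Type u} [Field F] [Finite F] {V : Type u} [AddCommGroup V] [Module F V]
    [FiniteDimensional F V] (Q : QuadraticForm F V) (r i : ℕ) (Φ : Finset F[X])
    (σ : F[X] → F[X]), CycData F r i Φ σ → Odd r → (r : F) ≠ 0 → ∀ A : V →ₗ[F] V,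
    Isom Q r A → ∀ φ ∈ Φ, dimk A (σ φ) = dimk A φ

/-! ### Types of quadratic spaces -/

/-- **WittEven.** A non-degenerate quadratic space of even dimension over a finite field is
hyperbolic or elliptic. -/
def WittEven : Prop :=
  ∀ {F : Type u} [Field F] [Finite F] {V : Type u} [AddCommGroup V] [Module F V]
    [FiniteDimensional F V] (Q : QuadraticForm F V),
    (QuadraticMap.polarBilin Q).Nondegenerate → Even (finrank F V) → IsPlus Q ∨ IsMinus Q

/-- **Excl.** Not both. -/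
def Excl : Prop :=
  ∀ {F : Type u} [Field F] [Finite F] {V : Type u} [AddCommGroup V] [Module F V]
    (Q : QuadraticForm F V), ¬ (IsPlus Q ∧ IsMinus Q)

/-- **Aniso.** Any two anisotropic planes over a finite field are isometric. -/
def Aniso : Prop :=
  ∀ {F : Type u} [Field F] [Finite F] {N N' : Type u} [AddCommGroup N] [Module F N]
    [AddCommGroup N'] [Module F N'] (Q : QuadraticForm F N) (Q' : QuadraticForm F N'),
    finrank F N = 2 → finrank F N' = 2 → (∀ v, Q v = 0 → v = 0) → (∀ v, Q' v = 0 → v = 0) →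
    ∃ θ : N ≃ₗ[F] N', ∀ v, Q' (θ v) = Q v

/-- **IsoClass.** Two spaces of the same dimension and the same type are isometric. -/
def IsoClass : Prop :=
  ∀ {F : Type u} [Field F] [Finite F] {V V' : Type u} [AddCommGroup V] [Module F V]
    [AddCommGroup V'] [Module F V'] [FiniteDimensional F V] [FiniteDimensional F V']
    (Q : QuadraticForm F V) (Q' : QuadraticForm F V'), finrank F V = finrank F V' →
    ((IsPlus Q ∧ IsPlus Q') ∨ (IsMinus Q ∧ IsMinus Q')) → ∃ θ : V ≃ₗ[F] V', ∀ v, Q' (θ v) = Q v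

/-- **SumRule.** Types of orthogonal sums. -/
def SumRule : Prop :=
  ∀ {F : Type u} [Field F] [Finite F] {V₁ V₂ : Type u} [AddCommGroup V₁] [Module F V₁]
    [AddCommGroup V₂] [Module F V₂] (Q₁ : QuadraticForm F V₁) (Q₂ : QuadraticForm F V₂),
    (IsPlus Q₁ → IsPlus Q₂ → IsPlus (Q₁.prod Q₂)) ∧
    (IsPlus Q₁ → IsMinus Q₂ → IsMinus (Q₁.prod Q₂)) ∧
    (IsMinus Q₁ → IsPlus Q₂ → IsMinus (Q₁.prod Q₂)) ∧
    (IsMinus Q₁ → IsMinus Q₂ → IsPlus (Q₁.prod Q₂))

/-- **TsPlus.** A non-degenerate space that is the direct sum of two totally singular subspaces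
is hyperbolic. -/
def TsPlus : Prop :=
  ∀ {F : Type u} [Field F] {V : Type u} [AddCommGroup V] [Module F V] [FiniteDimensional F V]
    (Q : QuadraticForm F V), (QuadraticMap.polarBilin Q).Nondegenerate →
    ∀ U U' : Submodule F V, (∀ x ∈ U, Q x = 0) → (∀ x ∈ U', Q x = 0) → IsCompl U U' → IsPlus Q

/-- **OddSim.** Two non-degenerate quadratic spaces of the same odd dimension (odd
characteristic) are similar. -/
def OddSim : Prop :=
  ∀ {F : Type u} [Field F] [Finite F] {V V' : Type u} [AddCommGroup V] [Module F V]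
    [AddCommGroup V'] [Module F V'] [FiniteDimensional F V] [FiniteDimensional F V']
    (Q : QuadraticForm F V) (Q' : QuadraticForm F V'), (2 : F) ≠ 0 →
    (QuadraticMap.polarBilin Q).Nondegenerate → (QuadraticMap.polarBilin Q').Nondegenerate →
    finrank F V = finrank F V' → Odd (finrank F V) →
    ∃ (θ : V ≃ₗ[F] V') (c : F), c ≠ 0 ∧ ∀ v, Q' (θ v) = c * Q v

/-- **BlockSd.** (`i` even.)  A quadratic space on which an isometry of order `r` acts
irreducibly without fixed vectors is elliptic. -/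
def BlockSd : Prop :=
  ∀ {F : Type u} [Field F] [Fintype F] {V : Type u} [AddCommGroup V] [Module F V]
    [FiniteDimensional F V] (Q : QuadraticForm F V) (q r i : ℕ) (Φ : Finset F[X])
    (σ : F[X] → F[X]), Ctx F q r i Φ σ → Even i → ∀ A : V →ₗ[F] V, Isom Q r A → Irr A ⊤ →
    Fpf A → IsMinus Q

/-- **TypeThm.** The type of a quadratic space with a fixed-point-free isometry of order `r`. -/
def TypeThm : Prop :=
  ∀ {F : Type u} [Field F] [Fintype F] {V : Type u} [AddCommGroup V] [Module F V]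
    [FiniteDimensional F V] (Q : QuadraticForm F V) (q r i : ℕ) (Φ : Finset F[X])
    (σ : F[X] → F[X]), Ctx F q r i Φ σ → ∀ A : V →ₗ[F] V, Isom Q r A → Fpf A →
    TypeOK Q i (finrank F V / i)

/-! ### Models -/

/-- **IrrMod.** For each `φ ∈ Φ` an endomorphism of order `r` of `F^i` with `φ` as its only
constituent, once (multiplication by the root on `F[X]/(φ)`). -/
def IrrMod : Prop :=
  ∀ {F : Type u} [Field F] [Fintype F] (q r i : ℕ) (Φ : Finset F[X]) (σ : F[X] → F[X]),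
    Ctx F q r i Φ σ → ∀ φ ∈ Φ, ∃ h : (Fin i → F) →ₗ[F] (Fin i → F),
      h ^ r = 1 ∧ Fpf h ∧ ∀ ψ ∈ Φ, dimk h ψ = if ψ = φ then i else 0

/-- **Double.** The hyperbolic double `(u, ℓ) ↦ ℓ(u)` on `U ⊕ U*` with the isometry
`h ⊕ (h⁻¹)*`. -/
def Double : Prop :=
  ∀ {F : Type u} [Field F] [Fintype F] (q r i : ℕ) (Φ : Finset F[X]) (σ : F[X] → F[X]),
    Ctx F q r i Φ σ → ∀ (d : ℕ) (h : (Fin d → F) →ₗ[F] (Fin d → F)), h ^ r = 1 → Fpf h →
    ∃ (Q : QuadraticForm F (Fin (d + d) → F)) (A : (Fin (d + d) → F) →ₗ[F] (Fin (d + d) → F)),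
      Isom Q r A ∧ Fpf A ∧ ∀ ψ ∈ Φ, dimk A ψ = dimk h ψ + dimk h (σ ψ)

/-- **EllSub.** (`i` even.)  Inside a space with a fixed-point-free isometry having `φ` as a
constituent there is a non-degenerate irreducible subspace of type `φ`. -/
def EllSub : Prop :=
  ∀ {F : Type u} [Field F] [Fintype F] (q r i : ℕ) (Φ : Finset F[X]) (σ : F[X] → F[X]),
    Ctx F q r i Φ σ → Even i → ∀ (d : ℕ) (Q : QuadraticForm F (Fin d → F))
    (A : (Fin d → F) →ₗ[F] (Fin d → F)), Isom Q r A → Fpf A → ∀ φ ∈ Φ, 0 < dimk A φ →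
    ∃ (Q' : QuadraticForm F (Fin i → F)) (A' : (Fin i → F) →ₗ[F] (Fin i → F)),
      Isom Q' r A' ∧ Fpf A' ∧ ∀ ψ ∈ Φ, dimk A' ψ = if ψ = φ then i else 0

/-- **OSum.** Orthogonal sums of models. -/
def OSum : Prop :=
  ∀ {F : Type u} [Field F] (r d₁ d₂ : ℕ) (Q₁ : QuadraticForm F (Fin d₁ → F))
    (A₁ : (Fin d₁ → F) →ₗ[F] (Fin d₁ → F)) (Q₂ : QuadraticForm F (Fin d₂ → F))
    (A₂ : (Fin d₂ → F) →ₗ[F] (Fin d₂ → F)), Isom Q₁ r A₁ → Isom Q₂ r A₂ →
    ∃ (Q : QuadraticForm F (Fin (d₁ + d₂) → F))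
      (A : (Fin (d₁ + d₂) → F) →ₗ[F] (Fin (d₁ + d₂) → F)),
      Isom Q r A ∧ (Fpf A₁ → Fpf A₂ → Fpf A) ∧ ∀ g : F[X], dimk A g = dimk A₁ g + dimk A₂ g

/-- **Model.** Every symmetric multiplicity function is realised by a fixed-point-free isometry
of order dividing `r` of some quadratic space. -/
def Model : Prop :=
  ∀ {F : Type u} [Field F] [Fintype F] (q r i : ℕ) (Φ : Finset F[X]) (σ : F[X] → F[X]),
    Ctx F q r i Φ σ → ∀ μ : F[X] → ℕ, (∀ φ ∈ Φ, μ (σ φ) = μ φ) →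
    ∃ (d : ℕ) (Q : QuadraticForm F (Fin d → F)) (A : (Fin d → F) →ₗ[F] (Fin d → F)),
      d = i * ∑ φ ∈ Φ, μ φ ∧ Isom Q r A ∧ Fpf A ∧ ∀ φ ∈ Φ, dimk A φ = i * μ φ

/-! ### Existence and necessity on a given space -/

/-- **RealEven.** Existence of an isometry with prescribed multiplicities on an even-dimensional
space. -/
def RealEven : Prop :=
  ∀ {F : Type u} [Field F] [Fintype F] {V : Type u} [AddCommGroup V] [Module F V]
    [FiniteDimensional F V] (Q : QuadraticForm F V) (q r i : ℕ) (Φ : Finset F[X])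
    (σ : F[X] → F[X]), Ctx F q r i Φ σ → (QuadraticMap.polarBilin Q).Nondegenerate →
    Even (finrank F V) → ∀ μ : F[X] → ℕ, (∀ φ ∈ Φ, μ (σ φ) = μ φ) →
    i * ∑ φ ∈ Φ, μ φ ≤ finrank F V →
    (i * ∑ φ ∈ Φ, μ φ = finrank F V → TypeOK Q i (∑ φ ∈ Φ, μ φ)) →
    ∃ B : V →ₗ[F] V, (∀ v, Q (B v) = Q v) ∧ B ^ r = 1 ∧ ∀ φ ∈ Φ, dimk B φ = i * μ φ

/-- **RealOdd.** The same on an odd-dimensional space (odd characteristic): no condition. -/
def RealOdd : Prop :=
  ∀ {F : Type u} [Field F] [Fintype F] {V : Type u} [AddCommGroup V] [Module F V]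
    [FiniteDimensional F V] (Q : QuadraticForm F V) (q r i : ℕ) (Φ : Finset F[X])
    (σ : F[X] → F[X]), Ctx F q r i Φ σ → (2 : F) ≠ 0 →
    (QuadraticMap.polarBilin Q).Nondegenerate → Odd (finrank F V) →
    ∀ μ : F[X] → ℕ, (∀ φ ∈ Φ, μ (σ φ) = μ φ) → i * ∑ φ ∈ Φ, μ φ ≤ finrank F V →
    ∃ B : V →ₗ[F] V, (∀ v, Q (B v) = Q v) ∧ B ^ r = 1 ∧ ∀ φ ∈ Φ, dimk B φ = i * μ φ

/-- **Nec.** The multiplicities of an isometry of order dividing `r`. -/
def Nec : Prop :=
  ∀ {F : Type u} [Field F] [Fintype F] {V : Type u} [AddCommGroup V] [Module F V]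
    [FiniteDimensional F V] (Q : QuadraticForm F V) (q r i : ℕ) (Φ : Finset F[X])
    (σ : F[X] → F[X]), Ctx F q r i Φ σ → ∀ B : V →ₗ[F] V, Isom Q r B →
    (∀ φ ∈ Φ, dimk B (σ φ) = dimk B φ) ∧ (∀ φ ∈ Φ, i ∣ dimk B φ) ∧
    i * ∑ φ ∈ Φ, dimk B φ / i ≤ finrank F V ∧
    (i * ∑ φ ∈ Φ, dimk B φ / i = finrank F V → TypeOK Q i (∑ φ ∈ Φ, dimk B φ / i))

/-! ### Counting -/

/-- **Count1.** Non-zero functions `α → ℕ` with sum `≤ L`, those of sum `L` being excluded
unless `P`. -/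
def Count1 : Prop :=
  ∀ (α : Type u) [Fintype α] (L : ℕ) (P : Prop) [Decidable P], 0 < Fintype.card α →
    Nat.card {μ : α → ℕ // μ ≠ 0 ∧ ∑ a, μ a ≤ L ∧ (∑ a, μ a = L → P)} =
      (L + Fintype.card α).choose (Fintype.card α) - 1 -
        (if P then 0 else (L + Fintype.card α - 1).choose (Fintype.card α - 1))

/-- **Count2.** The same for functions invariant under a fixed-point-free involution. -/
def Count2 : Prop :=
  ∀ (α : Type u) [Fintype α] (τ : α → α), (∀ a, τ (τ a) = a) → (∀ a, τ a ≠ a) →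
    ∀ (L : ℕ) (P : Prop) [Decidable P],
    Nat.card {μ : α → ℕ // (∀ a, μ (τ a) = μ a) ∧ μ ≠ 0 ∧ ∑ a, μ a ≤ L ∧ (∑ a, μ a = L → P)} =
      (L / 2 + Fintype.card α / 2).choose (Fintype.card α / 2) - 1 -
        (if P ∨ Odd L then 0
          else (L / 2 + Fintype.card α / 2 - 1).choose (Fintype.card α / 2 - 1))

end Cfsg.Agent.Lib.Helper43.OCls
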